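import Cfsg.Agent.H385.RC.Iso
import Cfsg.Agent.BpCl.Rows

/-!
# S3510, symplectic groups in characteristic two: the field rule (helper76)

`x` acts on `V` semilinearly for `σ ≠ 1`, `x ^ p = 1`; the fixed vectors `U` of `x` (`Cfsg.Agent.BpCl.U`) are a
space over the fixed field `K0 σ`.

* `cenN N x` : `C_N(x)`;  `simpCl_cenN` : it is simple (the symplectic group of the fixed vectors);
* `fix_of_cent`, `eq_one_of_cent` : what centralises `C_N(x)`;
* `sr_mem_cmm` : the commutator computation;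
* `field_rule`.
-/

set_option autoImplicit false
set_option linter.unusedSimpArgs false
set_option linter.unusedVariables false

namespace Cfsg.Agent.H76.RC

open Cfsg Cfsg.Agent.H106.RC Cfsg.Agent.H385.RC Cfsg.Agent.H380.RC Module
open scoped commutatorElement

section geom

variable {F V G : Type*} [Field F] [AddCommGroup V] [Module F V] [Group G] [DistribMulAction G V]
  {B : LinearMap.BilinForm F V} {N : Subgroup G}

/-- the semilinear isometry attached to `x` -/
theorem semiIso_of (x : G) {σ : F ≃+* F} (h1 : ∀ (a : F) (v : V), x • a • v = σ a • x • v)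
    (h2 : ∀ u v, B (x • u) (x • v) = σ (B u v)) :
    BpCl.SemiIso (fun u v => B u v) σ 1 (MulAction.toPerm x : Equiv.Perm V) where
  add u v := smul_add x u v
  smul a v := h1 a v
  form u v := by rw [one_mul]; exact h2 u v

theorem toPerm_pow (x : G) (n : ℕ) : (MulAction.toPerm x : Equiv.Perm V) ^ n = MulAction.toPerm (x ^ n) :=
  (map_pow (MulAction.toPermHom G V) x n).symm

/-- the centraliser of `x` in `N` -/
def cenN (N : Subgroup G) (x : G) : Subgroup G := N ⊓ Subgroup.centralizer {x}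

theorem mem_cenN {x m : G} : m ∈ cenN N x ↔ m ∈ N ∧ x * m = m * x := by
  rw [cenN, Subgroup.mem_inf, Subgroup.mem_centralizer_singleton_iff]
  exact and_congr_right fun _ => eq_comm

/-- `C_N(x)` is the group of linear isometries commuting with `x` -/
theorem nonempty_cenN (h : Ev B N) (x : G) :
    Nonempty (↥(cenN N x) ≃* ↥(BpCl.Iso (fun u v => B u v) ⊓ BpCl.CL F (MulAction.toPerm x : Equiv.Perm V))) := by
  have hN : ∀ m : ↥(cenN N x), (m : G) ∈ N := fun m => (mem_cenN.1 m.2).1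
  let f : ↥(cenN N x) →* ↥(BpCl.Iso (fun u v => B u v) ⊓ BpCl.CL F (MulAction.toPerm x : Equiv.Perm V)) :=
    { toFun := fun m => ⟨h.le (hN m), fun u v => h.isom (hN m) u v, fun v => by
        have h1 := (mem_cenN.1 m.2).2
        change (m : G) • x • v = x • (m : G) • v
        rw [← mul_smul, ← mul_smul, h1]⟩
      map_one' := Subtype.ext (LinearEquiv.ext fun v => one_smul G v)
      map_mul' := fun a b => Subtype.ext (LinearEquiv.ext fun v => mul_smul (a : G) (b : G) v) }
  refine ⟨MulEquiv.ofBijective f ⟨fun a b hab => ?_, fun A => ?_⟩⟩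
  · apply Subtype.ext
    apply h.ext
    intro v
    exact DFunLike.congr_fun (congrArg Subtype.val hab) v
  · obtain ⟨g, hg, hgv⟩ := h.surjN A.1 A.2.1
    have hgx : x * g = g * x := by
      apply h.ext
      intro v
      rw [mul_smul, mul_smul, hgv, hgv]
      exact (A.2.2 v).symm
    refine ⟨⟨g, mem_cenN.2 ⟨hg, hgx⟩⟩, ?_⟩
    apply Subtype.ext
    apply LinearEquiv.ext
    intro v
    exact hgv v

variable {x : G} {σ : F ≃+* F} {p : ℕ}

theorem iter_eq (σ : F ≃+* F) (h1 : ∀ (a : F) (v : V), x • a • v = σ a • x • v) (n : ℕ) (a : F) (v : V) :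
    x ^ n • a • v = σ^[n] a • x ^ n • v := by
  induction n generalizing a v with
  | zero => simp
  | succ n ih => rw [pow_succ, mul_smul, h1, ih, mul_smul, Function.iterate_succ_apply]

theorem iter_id [Nontrivial V] (h1 : ∀ (a : F) (v : V), x • a • v = σ a • x • v) (hx : x ^ p = 1) (a : F) :
    σ^[p] a = a := by
  obtain ⟨v, hv⟩ := exists_ne (0 : V)
  have h2 := iter_eq σ h1 p a v
  rw [hx, one_smul, one_smul] at h2
  have h3 : (a - σ^[p] a) • v = 0 := by rw [sub_smul, ← h2, sub_self]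
  rcases smul_eq_zero.1 h3 with h4 | h4
  · exact (sub_eq_zero.1 h4).symm
  · exact absurd h4 hv

/-- the fixed vectors span -/
theorem span_fix [Nontrivial V] (hp : p.Prime) (hx : x ^ p = 1) (h1 : ∀ (a : F) (v : V), x • a • v = σ a • x • v)
    (h2 : ∀ u v, B (x • u) (x • v) = σ (B u v)) (hσ : σ ≠ RingEquiv.refl F) :
    Submodule.span F (BpCl.U (semiIso_of x h1 h2).toSemi : Set V) = ⊤ :=
  BpCl.span_U _ hp (by rw [toPerm_pow, hx]; exact map_one (MulAction.toPermHom G V)) (iter_id h1 hx) hσ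

/-- dimension of the space of fixed vectors -/
theorem finrank_fix [Nontrivial V] [Module.Finite F V] (hp : p.Prime) (hx : x ^ p = 1)
    (h1 : ∀ (a : F) (v : V), x • a • v = σ a • x • v)
    (h2 : ∀ u v, B (x • u) (x • v) = σ (B u v)) (hσ : σ ≠ RingEquiv.refl F) :
    finrank (BpCl.K0 σ) (BpCl.U (semiIso_of x h1 h2).toSemi) = finrank F V ∧
      Module.Finite (BpCl.K0 σ) (BpCl.U (semiIso_of x h1 h2).toSemi) := by
  obtain ⟨ι, hι, b, b0, hb⟩ := BpCl.exists_basis _ (span_fix hp hx h1 h2 hσ)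
  exact ⟨by rw [finrank_eq_card_basis b, finrank_eq_card_basis b0], Module.Finite.of_basis b0⟩

/-- the form on the fixed vectors is alternating -/
theorem bilin0_alt (h : Ev B N) (h1 : ∀ (a : F) (v : V), x • a • v = σ a • x • v)
    (h2 : ∀ u v, B (x • u) (x • v) = σ (B u v)) : (BpCl.bilin0 (semiIso_of x h1 h2)).IsAlt := fun u =>
  Subtype.ext (h.alt (u : V))

/-- four vectors fixed by `x`: `e, f` orthogonal independent, `(z, w)` hyperbolic pair orthogonal to `e, f` -/
theorem exists_four [Nontrivial V] [Module.Finite F V] (h : Ev B N) (hp : p.Prime) (hx : x ^ p = 1)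
    (h1 : ∀ (a : F) (v : V), x • a • v = σ a • x • v)
    (h2 : ∀ u v, B (x • u) (x • v) = σ (B u v)) (hσ : σ ≠ RingEquiv.refl F) (hdim : 6 ≤ finrank F V) :
    ∃ e f z w e' : V, x • e = e ∧ x • f = f ∧ x • z = z ∧ x • w = w ∧ B e f = 0 ∧ B e' e = 1 ∧ B e' f = 0 ∧ f ≠ 0 ∧
      B e z = 0 ∧ B f z = 0 ∧ B e w = 0 ∧ B f w = 0 ∧ B z w = 1 := by
  have hg := semiIso_of (B := B) x h1 h2
  obtain ⟨hfr, hfin⟩ := finrank_fix (B := B) hp hx h1 h2 hσ
  obtain ⟨k, E, hE⟩ := BpCl.exists_coords (bilin0_alt h h1 h2)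
    (BpCl.bilin0_nondeg (semiIso_of (B := B) x h1 h2) (span_fix hp hx h1 h2 hσ) h.nd)
  have hk : finrank (BpCl.K0 σ) (BpCl.U (semiIso_of (B := B) x h1 h2).toSemi) = 2 * k := by
    rw [← E.finrank_eq, finrank_fintype_fun_eq_card]
    simp [two_mul]
  have hk3 : 3 ≤ k := by omega
  have hB : ∀ u v : BpCl.U (semiIso_of (B := B) x h1 h2).toSemi, B (u : V) v =
      ((sympForm k (BpCl.K0 σ) (E.symm u) (E.symm v) : BpCl.K0 σ) : F) := by
    intro u v
    rw [← hE, E.apply_symm_apply, E.apply_symm_apply]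
    rfl
  have hB' : ∀ u v, B (E u : V) (E v) = ((sympForm k (BpCl.K0 σ) u v : BpCl.K0 σ) : F) := by
    intro u v
    rw [hB, E.symm_apply_apply, E.symm_apply_apply]
  classical
  let i0 : Fin k := ⟨0, by omega⟩
  let i1 : Fin k := ⟨1, by omega⟩
  let i2 : Fin k := ⟨2, by omega⟩
  have h01 : i0 ≠ i1 := by simp [i0, i1, Fin.ext_iff]
  have h02 : i0 ≠ i2 := by simp [i0, i2, Fin.ext_iff]
  have h12 : i1 ≠ i2 := by simp [i1, i2, Fin.ext_iff]
  let s : Fin k ⊕ Fin k → (Fin k ⊕ Fin k → BpCl.K0 σ) := fun j => Pi.single j 1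
  have hs : ∀ i j, sympForm k (BpCl.K0 σ) (s i) (s j) = Matrix.J (Fin k) (BpCl.K0 σ) i j := by
    intro i j
    simp [s, sympForm]
  have hx' : ∀ u : BpCl.U (semiIso_of (B := B) x h1 h2).toSemi, x • (u : V) = u := fun u => u.2
  refine ⟨E (s (Sum.inl i0)), E (s (Sum.inl i1)), E (s (Sum.inr i2)), E (s (Sum.inl i2)), E (s (Sum.inr i0)),
    hx' _, hx' _, hx' _, hx' _, ?_, ?_, ?_, ?_, ?_, ?_, ?_, ?_, ?_⟩
  · rw [hB', hs]; simp [Matrix.J]
  · rw [hB', hs]; simp [Matrix.J]
  · rw [hB', hs]; simp [Matrix.J, h01]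
  · intro h0
    have h3 : E (s (Sum.inl i1)) = 0 := Subtype.ext h0
    have h4 : s (Sum.inl i1) = 0 := (map_eq_zero_iff E E.injective).1 h3
    have h5 := congrFun h4 (Sum.inl i1)
    simp [s] at h5
  · rw [hB', hs]; simp [Matrix.J, h02]
  · rw [hB', hs]; simp [Matrix.J, h12]
  · rw [hB', hs]; simp [Matrix.J]
  · rw [hB', hs]; simp [Matrix.J]
  · rw [hB', hs]; simp [Matrix.J]

end geom

/-- Galois theory of finite fields -/
theorem mem_zpowers_of_fix {F : Type*} [Field F] [Finite F] (σ σ' : F ≃+* F) (h : ∀ a, σ a = a → σ' a = a) :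
    σ' ∈ Subgroup.zpowers σ := by
  classical
  let Gm := Subgroup.zpowers σ
  have : Finite (F ≃+* F) := Finite.of_injective (fun e : F ≃+* F => (e : F → F)) DFunLike.coe_injective
  have : Fintype Gm := Fintype.ofFinite _
  let τ : F ≃ₐ[FixedPoints.subfield Gm F] F :=
    { σ' with
      commutes' := fun c => h c (c.2 ⟨σ, Subgroup.mem_zpowers σ⟩) }
  obtain ⟨g, hg⟩ := (FixedPoints.toAlgAutMulEquiv Gm F).surjective τ
  have : (g : F ≃+* F) = σ' := by
    ext a
    have := DFunLike.congr_fun hg a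
    exact this
  rw [← this]
  exact g.2

/-- commutator subgroup of a nonabelian simple subgroup -/
theorem comm_self_of_simple {G : Type*} [Group G] {M : Subgroup G} (h1 : IsSimpleGroup M) (h2 : ¬ IsMulCommutative M) :
    ⁅M, M⁆ = M := by
  have h3 : commutator M = ⊤ := by
    rcases h1.eq_bot_or_eq_top_of_normal (commutator M) inferInstance with h | h
    · exfalso
      apply h2
      constructor
      constructor
      intro a b
      have h4 : ⁅a, b⁆ ∈ commutator M := Subgroup.commutator_mem_commutator (Subgroup.mem_top a) (Subgroup.mem_top b)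
      rw [h, Subgroup.mem_bot, commutatorElement_eq_one_iff_mul_comm] at h4
      exact h4
    · exact h
  have h4 := Subgroup.map_commutator (⊤ : Subgroup M) ⊤ M.subtype
  rw [← commutator_def, h3, ← MonoidHom.range_eq_map, Subgroup.range_subtype] at h4
  exact h4.symm

section geom

variable {F V G : Type*} [Field F] [AddCommGroup V] [Module F V] [Group G] [DistribMulAction G V]
  {B : LinearMap.BilinForm F V} {N : Subgroup G} {x : G} {σ : F ≃+* F} {p : ℕ}

theorem tr_mem_cenN (h : Ev B N) (h1 : ∀ (a : F) (v : V), x • a • v = σ a • x • v)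
    (h2 : ∀ u v, B (x • u) (x • v) = σ (B u v)) {v : V} (hv : x • v = v) : h.tr v 1 ∈ cenN N x := by
  rw [mem_cenN]
  refine ⟨h.tr_mem v 1, ?_⟩
  have h3 := h.conj_tr h1 h2 v 1
  rw [hv, map_one] at h3
  exact mul_inv_eq_iff_eq_mul.1 h3

theorem sr_mem_cenN (h : Ev B N) {e f : V} (hef : B e f = 0) (he : x • e = e) (hf : x • f = f) :
    h.sr hef ∈ cenN N x := by
  rw [mem_cenN]
  refine ⟨h.sr_mem hef, ?_⟩
  have h3 := h.conj_sr x hef
  have h4 : h.sr (h.form_zero x hef) = h.sr hef := by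
    apply h.ext
    intro v
    rw [h.sr_apply, h.sr_apply, he, hf]
  rw [h4] at h3
  exact mul_inv_eq_iff_eq_mul.1 h3

/-- an element which centralises `C_N(x)` fixes the fixed vectors of `x` -/
theorem fix_of_cent (h : Ev B N) (h1 : ∀ (a : F) (v : V), x • a • v = σ a • x • v)
    (h2 : ∀ u v, B (x • u) (x • v) = σ (B u v)) {y : G} (hc : ∀ m ∈ cenN N x, y * m = m * y) {v : V}
    (hv : x • v = v) : y • v = v := by
  by_cases hv0 : v = 0
  · rw [hv0, smul_zero]
  obtain ⟨τ, h1', h2'⟩ := h.semi y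
  have h3 := h.conj_tr h1' h2' v 1
  rw [map_one, hc _ (tr_mem_cenN h h1 h2 hv), mul_inv_cancel_right] at h3
  have h4 : ∀ w, B w v • v = B w (y • v) • y • v := by
    intro w
    have h5 := h.tr_apply v 1 w
    rw [h3, h.tr_apply, one_mul, one_mul] at h5
    exact (add_left_cancel h5).symm
  obtain ⟨w, hw⟩ : ∃ w, B v w ≠ 0 := by
    by_contra hno
    push Not at hno
    exact hv0 (h.nd v hno)
  have hw' : B w v ≠ 0 := by rw [h.symm]; exact hw
  -- `y v = d v`
  have hc0 : B w (y • v) ≠ 0 := by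
    intro h0
    have h5 := h4 w
    rw [h0, zero_smul] at h5
    rcases smul_eq_zero.1 h5 with h6 | h6
    · exact hw' h6
    · exact hv0 h6
  obtain ⟨d, hd⟩ : ∃ d : F, y • v = d • v := by
    refine ⟨(B w (y • v))⁻¹ * B w v, ?_⟩
    rw [mul_smul, h4 w, inv_smul_smul₀ hc0]
  have h5 := h4 w
  rw [hd, map_smul, smul_eq_mul, smul_smul] at h5
  have h6 : (B w v * (1 - d * d)) • v = 0 := by
    rw [mul_sub, sub_smul, sub_eq_zero, mul_one, h5]
    congr 1
    ring
  have h7 : 1 - d * d = 0 := by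
    rcases smul_eq_zero.1 h6 with h8 | h8
    · exact (mul_eq_zero.1 h8).resolve_left hw'
    · exact absurd h8 hv0
  have h8 : (1 - d) * (1 - d) = 0 := by
    linear_combination (-1 : F) * h7 + (1 - d) * h.two
  have h9 : d = 1 := (sub_eq_zero.1 (mul_self_eq_zero.1 h8)).symm
  rw [hd, h9, one_smul]

/-- an element of order prime to `p` which centralises `C_N(x)` is trivial -/
theorem eq_one_of_cent [Finite F] [Nontrivial V] (h : Ev B N) (hp : p.Prime) (hx : x ^ p = 1)
    (h1 : ∀ (a : F) (v : V), x • a • v = σ a • x • v)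
    (h2 : ∀ u v, B (x • u) (x • v) = σ (B u v)) (hσ : σ ≠ RingEquiv.refl F) {y : G} {q : ℕ} (hq : y ^ q = 1)
    (hpq : p.Coprime q) (hc : ∀ m ∈ cenN N x, y * m = m * y) : y = 1 := by
  obtain ⟨τ, h1', h2'⟩ := h.semi y
  have hspan := span_fix hp hx h1 h2 hσ
  have hfix : ∀ v : V, x • v = v → y • v = v := fun v hv => fix_of_cent h h1 h2 hc hv
  -- a nonzero fixed vector
  obtain ⟨v0, hv0, hv0'⟩ : ∃ v0 : V, x • v0 = v0 ∧ v0 ≠ 0 := by
    by_contra hno
    push Not at hno
    have h3 : Submodule.span F (BpCl.U (semiIso_of x h1 h2).toSemi : Set V) = ⊥ := by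
      rw [Submodule.span_eq_bot]
      intro v hv
      exact hno v hv
    rw [hspan] at h3
    obtain ⟨v, hv⟩ := exists_ne (0 : V)
    have h4 : v ∈ (⊤ : Submodule F V) := trivial
    rw [h3, Submodule.mem_bot] at h4
    exact hv h4
  have hτ : ∀ a, σ a = a → τ a = a := by
    intro a ha
    have h3 : y • a • v0 = a • v0 := hfix _ (by rw [h1, ha, hv0])
    rw [h1', hfix v0 hv0] at h3
    have h4 : (τ a - a) • v0 = 0 := by rw [sub_smul, h3, sub_self]
    rcases smul_eq_zero.1 h4 with h5 | h5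
    · exact sub_eq_zero.1 h5
    · exact absurd h5 hv0'
  have h3 := mem_zpowers_of_fix σ τ hτ
  have h4 : (σ : RingAut F) ^ p = 1 := by
    ext a
    rw [BpCl.iterate_eq_pow, iter_id h1 hx]
    rfl
  have h5 : (τ : RingAut F) ^ q = 1 := by
    ext a
    rw [BpCl.iterate_eq_pow, iter_id h1' hq]
    rfl
  have h6 : (τ : RingAut F) ^ p = 1 := by
    obtain ⟨k, hk⟩ := Subgroup.mem_zpowers_iff.1 h3
    rw [← hk]
    have h7 : ((σ : RingAut F) ^ k) ^ p = ((σ : RingAut F) ^ p) ^ k := by
      rw [← zpow_natCast, ← zpow_natCast, ← zpow_mul, ← zpow_mul, mul_comm]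
    exact h7.trans (by rw [h4, one_zpow])
  have h7 : (τ : RingAut F) = 1 := by
    have h8 : orderOf (τ : RingAut F) ∣ Nat.gcd p q := Nat.dvd_gcd (orderOf_dvd_of_pow_eq_one h6)
      (orderOf_dvd_of_pow_eq_one h5)
    rw [hpq, Nat.dvd_one, orderOf_eq_one_iff] at h8
    exact h8
  have h8 : ∀ a, τ a = a := fun a => DFunLike.congr_fun h7 a
  apply h.inj
  intro v
  refine BpCl.induction_U (semiIso_of x h1 h2).toSemi hspan (P := fun v => y • v = v) (fun v hv => hfix v hv)
    (fun u v hu hv => ?_) (fun a v hv => ?_) v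
  · rw [smul_add, hu, hv]
  · rw [h1', h8, hv]

/-- **The commutator computation**: a short root element with `e, f` fixed by `x` is in `[U, x]`, `U` the pointwise
stabiliser of `e, f` in `N`. -/
theorem sr_mem_cmm (h : Ev B N) (h1 : ∀ (a : F) (v : V), x • a • v = σ a • x • v)
    (hσ : σ ≠ RingEquiv.refl F) {e f z w : V} (he : x • e = e) (hf : x • f = f) (hw : x • w = w)
    (hef : B e f = 0) (hez : B e z = 0) (hfz : B f z = 0) (hew : B e w = 0) (hfw : B f w = 0) (hzw : B z w = 1)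
    {U : Subgroup G} (hU : ∀ g, g ∈ U ↔ g ∈ N ∧ g • e = e ∧ g • f = f) : h.sr hef ∈ cmm U x := by
  obtain ⟨a, ha⟩ : ∃ a, σ a ≠ a := by
    by_contra hno
    push Not at hno
    exact hσ (RingEquiv.ext hno)
  have hfe : B f e = 0 := by rw [h.symm, hef]
  have hwz : B w z = 1 := by rw [h.symm, hzw]
  have hwe : B w e = 0 := by rw [h.symm, hew]
  have hwf : B w f = 0 := by rw [h.symm, hfw]
  have hze : B z e = 0 := by rw [h.symm, hez]
  have hzf : B z f = 0 := by rw [h.symm, hfz]
  have hww : B w w = 0 := h.self w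
  have hzz : B z z = 0 := h.self z
  have hee : B e e = 0 := h.self e
  have hff : B f f = 0 := h.self f
  have hs : a + σ a ≠ 0 := by
    intro h0
    apply ha
    have h3 := h.add_self a
    linear_combination h0 - h3
  set s : F := a + σ a with hs_def
  -- the elements of `U`
  have hea : ∀ b : F, B e (b • w) = 0 := fun b => by rw [map_smul, hew, smul_zero]
  have hfb : ∀ b : F, B f (b • z) = 0 := fun b => by rw [map_smul, hfz, smul_zero]
  have hu : h.sr (hea a) ∈ U := by
    rw [hU]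
    refine ⟨h.sr_mem _, ?_, ?_⟩ <;>
    · rw [h.sr_apply]
      simp [hee, hfe, hew, hfw]
  have hv : h.sr (hfb s⁻¹) ∈ U := by
    rw [hU]
    refine ⟨h.sr_mem _, ?_, ?_⟩ <;>
    · rw [h.sr_apply]
      simp [hef, hff, hez, hfz]
  -- `u x u⁻¹ x⁻¹`
  have h3 : h.sr (hea a) * x * (h.sr (hea a))⁻¹ * x⁻¹ = h.sr (hea s) := by
    have h4 : h.sr (hea a) * x * (h.sr (hea a))⁻¹ * x⁻¹ = h.sr (hea a) * (x * h.sr (hea a) * x⁻¹) := by
      rw [h.sr_inv]; group
    rw [h4, h.conj_sr]
    apply h.ext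
    intro v
    rw [mul_smul, h.sr_apply, h.sr_apply, h.sr_apply]
    simp only [h1, he, hw, map_add, map_smul, LinearMap.add_apply, LinearMap.smul_apply, hee, hew, hwe, hww, smul_eq_mul,
      mul_zero, add_zero, zero_smul, zero_add]
    rw [hs_def]
    module
  have h4 : h.sr (hea s) ∈ cmm U x := by
    rw [← h3]
    exact mem_cmm hu
  -- `[v, c]`
  have h5 : h.sr (hfb s⁻¹) * h.sr (hea s) * (h.sr (hfb s⁻¹))⁻¹ * (h.sr (hea s))⁻¹ = h.sr hef := by
    rw [h.sr_inv, h.sr_inv]
    apply h.ext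
    intro v
    rw [mul_smul, mul_smul, mul_smul, h.sr_apply hef, h.sr_apply (hea s) v, h.sr_apply (hfb s⁻¹), h.sr_apply (hea s),
      h.sr_apply (hfb s⁻¹)]
    simp only [map_add, map_smul, LinearMap.add_apply, LinearMap.smul_apply, hee, hew, hwe, hww, hff, hfe, hef, hzz,
      hze, hez, hzf, hfz, hwf, hfw, hwz, hzw, smul_eq_mul, mul_zero, add_zero, zero_smul, zero_add, mul_one]
    have hst : s * s⁻¹ = 1 := mul_inv_cancel₀ hs
    generalize s⁻¹ = t at hst ⊢
    clear_value s
    have h20 := h.two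
    match_scalars
    · rfl
    · linear_combination (B v e * s) * h20
    · linear_combination (s * B v w) * h20 + B v f * hst
    · linear_combination (B v f * t) * h20
    · linear_combination (t * B v z + t * B v e * s) * h20 + B v e * hst
  rw [← h5]
  exact cmm_comm hv h4

end geom

/-- the rule, given `SimpCl (C_N(x i))` -/
theorem field_core {F V G Ω S : Type} [Field F] [Finite F] [AddCommGroup V] [Module F V] [FiniteDimensional F V]
    [Group G] [Finite G] [DistribMulAction G V] {B : LinearMap.BilinForm F V} {N : Subgroup G} (h : Ev B N)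
    [MulAction G Ω] [Nonempty Ω] (hE : Env G Ω N) [Group S] [Finite S] (hIH : IH (Nat.card S)) (eS : N ≃* S)
    {ι : Type} [Finite ι] {x : ι → G} {r : ι → ℕ} (hx : PF x r) (hcov : Cov Ω x)
    (hdim : 6 ≤ Module.finrank F V) (i : ι) (hi : x i ∉ N) (hM : SimpCl ↥(cenN N (x i))) : False := by
  obtain ⟨σ, h1, h2⟩ := h.semi (x i)
  have hnt : Nontrivial V := by
    apply Module.nontrivial_of_finrank_pos (R := F)
    omega
  have hσ : σ ≠ RingEquiv.refl F := by
    rintro rfl
    exact hi ((h.mem _).2 h1)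
  have hp := hx.prime i
  have hxp := hx.pow i
  obtain ⟨e, f, z, w, e', he, hf, hz, hw, hef, he'e, he'f, hf0, hez, hfz, hew, hfw, hzw⟩ :=
    exists_four h hp hxp h1 h2 hσ hdim
  have hN := hE.norm
  -- the M-rule
  have hMN : cenN N (x i) ≤ N := inf_le_left
  have hne : cenN N (x i) ≠ N := by
    intro heq
    have h3 : x i ∈ Subgroup.centralizer (N : Set G) := by
      rw [Subgroup.mem_centralizer_iff]
      intro m hm
      have h4 : m ∈ cenN N (x i) := by rw [heq]; exact hm
      exact (mem_cenN.1 h4).2.symm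
    rw [hE.cent, Subgroup.mem_bot] at h3
    exact hx.ne i h3
  have hnorm : ∀ j, x j ∈ Subgroup.normalizer (cenN N (x i) : Set G) := by
    intro j
    rw [Subgroup.mem_normalizer_iff]
    have hji := hx.comm j i
    intro m
    rw [mem_cenN, mem_cenN]
    constructor
    · rintro ⟨hm1, hm2⟩
      refine ⟨hN.conj_mem m hm1 (x j), ?_⟩
      have h5 : (x j)⁻¹ * x i = x i * (x j)⁻¹ := by
        rw [inv_mul_eq_iff_eq_mul, ← mul_assoc, hji, mul_inv_cancel_right]
      calc x i * (x j * m * (x j)⁻¹) = (x i * x j) * m * (x j)⁻¹ := by group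
        _ = x j * (x i * m) * (x j)⁻¹ := by rw [← hji]; group
        _ = x j * m * (x i * (x j)⁻¹) := by rw [hm2]; group
        _ = x j * m * (x j)⁻¹ * x i := by rw [← h5]; group
    · rintro ⟨hm1, hm2⟩
      have hm' : (x j)⁻¹ * (x j * m * (x j)⁻¹) * x j = m := by group
      have hm1' := hN.conj_mem _ hm1 (x j)⁻¹
      rw [inv_inv, hm'] at hm1'
      refine ⟨hm1', ?_⟩
      have h5 : (x j)⁻¹ * x i = x i * (x j)⁻¹ := by
        rw [inv_mul_eq_iff_eq_mul, ← mul_assoc, hji, mul_inv_cancel_right]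
      calc x i * m = (x i * (x j)⁻¹) * (x j * m * (x j)⁻¹) * x j := by group
        _ = (x j)⁻¹ * (x i * (x j * m * (x j)⁻¹)) * x j := by rw [← h5]; group
        _ = (x j)⁻¹ * (x j * m * (x j)⁻¹) * (x i * x j) := by rw [hm2]; group
        _ = m * x i := by rw [← hji]; group
  have hrule : ∀ ω : Ω, cenN N (x i) ≤ MulAction.stabilizer G ω ∨
      ∃ j, (∀ m ∈ cenN N (x i), x j * m = m * x j) ∧ x j • ω = ω := fun ω =>
    mrule_IH hIH eS hMN hne (comm_self_of_simple hM.simple hM.ncomm) (MonoidHom.id ↥(cenN N (x i)))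
      Function.surjective_id (by
        intro a ha
        have h4 : a = 1 := ha
        rw [h4]
        exact Subgroup.one_mem _) hM.simple hM.ncomm hM.cl hM.nexc hx hcov hnorm ω
  -- only `x i` centralises `C_N(x i)`
  have hcent : ∀ j, (∀ m ∈ cenN N (x i), x j * m = m * x j) → j = i := by
    intro j hj
    by_contra hji
    have h3 : (r i).Coprime (r j) := (Nat.coprime_primes hp (hx.prime j)).2 fun h4 => hji (hx.inj h4).symm
    exact hx.ne j (eq_one_of_cent h hp hxp h1 h2 hσ (hx.pow j) h3 hj)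
  -- the short root element
  have hy : h.sr hef ∈ cenN N (x i) := sr_mem_cenN h hef he hf
  have hy1 : h.sr hef ≠ 1 := by
    intro h3
    have h4 := h.sr_apply hef e'
    rw [h3, one_smul, he'e, he'f, one_smul, zero_smul, add_zero] at h4
    exact hf0 (left_eq_add.1 h4)
  let U : Subgroup G := N ⊓ (MulAction.stabilizer G e ⊓ MulAction.stabilizer G f)
  have hU : ∀ g, g ∈ U ↔ g ∈ N ∧ g • e = e ∧ g • f = f := fun g => Iff.rfl
  refine not_cov_one hE (x := x i) (y := h.sr hef) (U := U) (fun ω => ?_) (fun u hu => ?_) hy1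
    (sr_mem_cmm h h1 hσ he hf hw hef hez hfz hew hfw hzw hU)
  · rcases hrule ω with h3 | ⟨j, hj, hjω⟩
    · exact Or.inl (h3 hy)
    · rw [hcent j hj] at hjω
      exact Or.inr hjω
  · obtain ⟨hu1, hu2, hu3⟩ := (hU u).1 hu
    have h3 := h.conj_sr u hef
    have h4 : h.sr (h.form_zero u hef) = h.sr hef := by
      apply h.ext
      intro v
      rw [h.sr_apply, h.sr_apply, hu2, hu3]
    rw [h4] at h3
    exact mul_inv_eq_iff_eq_mul.1 h3


/-- `C_N(x)` is a simple symplectic group -/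
theorem simpCl_cenN {F V G : Type} [Field F] [Finite F] [AddCommGroup V] [Module F V] [FiniteDimensional F V]
    [Group G] [DistribMulAction G V] {B : LinearMap.BilinForm F V} {N : Subgroup G} (h : Ev B N) {x : G}
    {p : ℕ} (hp : p.Prime) (hxp : x ^ p = 1) (hx : x ∉ N) (hdim : 6 ≤ finrank F V) : SimpCl ↥(cenN N x) := by
  obtain ⟨σ, h1, h2⟩ := h.semi x
  have hnt : Nontrivial V := by
    apply Module.nontrivial_of_finrank_pos (R := F)
    omega
  have hσ : σ ≠ RingEquiv.refl F := by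
    rintro rfl
    exact hx ((h.mem _).2 h1)
  obtain ⟨e1⟩ := nonempty_cenN h x
  obtain ⟨e2⟩ := BpCl.nonempty_bilin (semiIso_of x h1 h2) (span_fix hp hxp h1 h2 hσ)
  obtain ⟨hfr, hfin⟩ := finrank_fix (B := B) hp hxp h1 h2 hσ
  have h3 : Cfsg.Agent.H520.RC.NAlt (BpCl.bilin0 (semiIso_of (B := B) x h1 h2)) :=
    ⟨bilin0_alt h h1 h2, BpCl.bilin0_nondeg _ (span_fix hp hxp h1 h2 hσ) h.nd⟩
  have h4 : (2 : BpCl.K0 σ) = 0 := Subtype.ext h.two
  have h5 := simpCl_Sp h3 h4 (Or.inl (by rw [hfr]; exact hdim))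
  exact SimpCl.congr (e1.trans e2).symm h5

/-- **Field rule**: the cover has no properly semilinear member (dimension at least 6). -/
theorem field_rule {F V G Ω S : Type} [Field F] [Finite F] [AddCommGroup V] [Module F V] [FiniteDimensional F V]
    [Group G] [Finite G] [DistribMulAction G V] {B : LinearMap.BilinForm F V} {N : Subgroup G} (h : Ev B N)
    [MulAction G Ω] [Nonempty Ω] (hE : Env G Ω N) [Group S] [Finite S] (hIH : IH (Nat.card S)) (eS : N ≃* S)
    {ι : Type} [Finite ι] {x : ι → G} {r : ι → ℕ} (hx : PF x r) (hcov : Cov Ω x)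
    (hdim : 6 ≤ Module.finrank F V) (i : ι) (hi : x i ∉ N) : False :=
  field_core h hE hIH eS hx hcov hdim i hi (simpCl_cenN h (hx.prime i) (hx.pow i) hi hdim)

end Cfsg.Agent.H76.RC
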