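import Cfsg.Agent.H385.RC.Dec

/-!
# S3510, symplectic groups in characteristic two: the M-rule for a plane (helper76)

`plane_rule` : `M_A ≅ SL₂(q)`, `q ≥ 4`, `A` a nondegenerate plane.
-/

set_option autoImplicit false
set_option linter.unusedSimpArgs false
set_option linter.unusedVariables false
set_option linter.unusedSectionVars false

namespace Cfsg.Agent.H76.RC

open MulAction Cfsg Cfsg.Agent.H106.RC Cfsg.Agent.H385.RC Cfsg.Agent.H520.RC Module Submodule
open scoped commutatorElement

theorem mem_of_pow_mem {G : Type*} [Group G] {S : Subgroup G} {y : G} {s n : ℕ} (hs : s.Prime) (hy : y ^ s = 1)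
    (hn : y ^ n ∈ S) (hsn : ¬ s ∣ n) : y ∈ S := by
  have h1 : Nat.Coprime n s := ((Nat.Prime.coprime_iff_not_dvd hs).2 hsn).symm
  obtain ⟨k, -, hk⟩ := Nat.exists_mul_mod_eq_one_of_coprime h1 hs.one_lt
  have h2 : (y ^ n) ^ k = y := by
    rw [← pow_mul, ← Nat.div_add_mod (n * k) s, hk, pow_add, pow_mul, hy, one_pow, one_mul, pow_one]
  rw [← h2]
  exact S.pow_mem hn k

section plane

variable {F V G : Type*} [Field F] [Finite F] [AddCommGroup V] [Module F V] [FiniteDimensional F V] [Group G] [Finite G]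
  [DistribMulAction G V] {B : LinearMap.BilinForm F V} {N : Subgroup G}

/-- the elements of the field with four elements -/
theorem four_cases (h4 : Nat.card F = 4) (t : F) : t = 0 ∨ t = 1 ∨ t * t + t + 1 = 0 := by
  have : Fintype F := Fintype.ofFinite F
  have h1 := FiniteField.pow_card t
  rw [← Nat.card_eq_fintype_card, h4] at h1
  have h2 : t * ((t - 1) * (t * t + t + 1)) = 0 := by linear_combination h1
  rcases mul_eq_zero.1 h2 with h3 | h3
  · exact Or.inl h3
  · rcases mul_eq_zero.1 h3 with h5 | h5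
    · exact Or.inr (Or.inl (sub_eq_zero.1 h5))
    · exact Or.inr (Or.inr h5)

/-- Cayley-Hamilton on a nondegenerate plane -/
theorem cayley (h : Ev B N) {A : Submodule F V} (hA : NAlt (B.restrict A)) (hd : finrank F A = 2) {g : G} (hg : g ∈ N)
    (hgA : ∀ v ∈ A, g • v ∈ A) : ∃ t : F, ∀ v ∈ A, g • g • v = t • g • v + v := by
  have hA0 : A ≠ ⊥ := by
    rintro rfl
    rw [finrank_bot] at hd
    omega
  obtain ⟨e, he, he0⟩ := Submodule.exists_mem_ne_zero_of_ne_bot hA0
  obtain ⟨f, hf, hef⟩ : ∃ f ∈ A, B e f = 1 := by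
    obtain ⟨y, hy⟩ := hA.exists_one (x := ⟨e, he⟩) (fun h0 => he0 (congrArg Subtype.val h0))
    exact ⟨y, y.2, hy⟩
  have hfe : B f e = 1 := by rw [h.symm, hef]
  have hspan : ∀ w ∈ A, ∃ a b : F, w = a • e + b • f := by
    intro w hw
    have hle : span F {e, f} ≤ A := by
      rw [Submodule.span_le]
      rintro z (rfl | rfl)
      · exact he
      · exact hf
    have hli : LinearIndependent F ![e, f] := by
      rw [LinearIndependent.pair_iff]
      intro s t hst
      have h1 : B (s • e + t • f) f = 0 := by rw [hst, map_zero, LinearMap.zero_apply]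
      have h2 : B (s • e + t • f) e = 0 := by rw [hst, map_zero, LinearMap.zero_apply]
      rw [map_add, LinearMap.add_apply, LinearMap.map_smul B s e, LinearMap.map_smul B t f, LinearMap.smul_apply,
        LinearMap.smul_apply, hef, h.self, smul_zero, add_zero, smul_eq_mul, mul_one] at h1
      rw [map_add, LinearMap.add_apply, LinearMap.map_smul B s e, LinearMap.map_smul B t f, LinearMap.smul_apply,
        LinearMap.smul_apply, hfe, h.self, smul_zero, zero_add, smul_eq_mul, mul_one] at h2
      exact ⟨h1, h2⟩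
    have h2 : finrank F (span F {e, f}) = 2 := by
      have h5 := finrank_span_eq_card hli
      have hr : Set.range ![e, f] = {e, f} := by
        simp [Matrix.range_cons, Matrix.range_empty, Set.pair_comm]
      rw [hr, Fintype.card_fin] at h5
      exact h5
    have h3 : span F {e, f} = A := Submodule.eq_of_le_of_finrank_eq hle (by rw [h2, hd])
    rw [← h3] at hw
    obtain ⟨a, b, hab⟩ := mem_span_pair.1 hw
    exact ⟨a, b, hab.symm⟩
  obtain ⟨α, β, h1⟩ := hspan _ (hgA e he)
  obtain ⟨γ, δ, h2⟩ := hspan _ (hgA f hf)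
  have hdet : α * δ + β * γ = 1 := by
    have h3 := h.isom hg e f
    rw [h1, h2, hef] at h3
    simp only [map_add, LinearMap.add_apply, LinearMap.map_smul, LinearMap.smul_apply, smul_eq_mul, hef, hfe, h.self]
      at h3
    linear_combination h3
  have h20 := h.two
  refine ⟨α + δ, fun v hv => ?_⟩
  obtain ⟨a, b, rfl⟩ := hspan v hv
  simp only [smul_add, h.lin hg, h1, h2]
  match_scalars
  · linear_combination a * hdet - (a * α * δ) * h20
  · linear_combination b * hdet - (b * α * δ) * h20

/-- elements of `SL₂(4)` have order dividing 2, 3 or 5 -/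
theorem plane_pow (h : Ev B N) {A : Submodule F V} (hA : NAlt (B.restrict A)) (hd : finrank F A = 2)
    (h4 : Nat.card F = 4) {g : G} (hg : g ∈ N) (hgA : ∀ v ∈ A, g • v ∈ A) :
    ∃ m : ℕ, m.Prime ∧ ∀ a ∈ A, g ^ m • a = a := by
  obtain ⟨t, ht⟩ := cayley h hA hd hg hgA
  have h20 := h.two
  rcases four_cases h4 t with h5 | h5 | h5
  · refine ⟨2, Nat.prime_two, fun v hv => ?_⟩
    rw [pow_two, mul_smul, ht v hv, h5, zero_smul, zero_add]
  · refine ⟨3, Nat.prime_three, fun v hv => ?_⟩
    have e2 := ht v hv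
    rw [h5, one_smul] at e2
    rw [pow_succ, pow_two, mul_smul, mul_smul, e2, smul_add, e2]
    rw [add_comm (g • v) v, add_assoc, h.vadd_self, add_zero]
  · refine ⟨5, Nat.prime_five, fun v hv => ?_⟩
    have e2 := ht v hv
    have e3 : g • g • g • v = (t * t + 1) • g • v + t • v := by
      rw [e2, smul_add, h.lin hg, e2]; generalize g • v = w; module
    have e4 : g • g • g • g • v = (t * t * t + 2 * t) • g • v + (t * t + 1) • v := by
      rw [e3, smul_add, h.lin hg, h.lin hg, e2]; generalize g • v = w; module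
    have e5 : g • g • g • g • g • v = (t * t * t * t + 3 * (t * t) + 1) • g • v + (t * t * t + 2 * t) • v := by
      rw [e4, smul_add, h.lin hg, h.lin hg, e2]; generalize g • v = w; module
    have c1 : t * t * t * t + 3 * (t * t) + 1 = 0 := by
      linear_combination (t * t - t + 1) * h5 + (t * t) * h20
    have c2 : t * t * t + 2 * t = 1 := by
      linear_combination (t - 1) * h5 + t * h20
    rw [c1, c2, zero_smul, zero_add, one_smul] at e5
    rw [show g ^ 5 = g * (g * (g * (g * g))) by simp only [pow_succ, pow_zero, one_mul, mul_assoc]]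
    simp only [mul_smul]
    exact e5

end plane

section rule

variable {F V G Ω S : Type} [Field F] [Finite F] [AddCommGroup V] [Module F V] [FiniteDimensional F V] [Group G] [Finite G]
  [DistribMulAction G V] {B : LinearMap.BilinForm F V} {N : Subgroup G} [MulAction G Ω] [Group S] [Finite S]

/-- trivial on `A` implies commuting with `M_A` -/
theorem comm_of_fix (h : Ev B N) {A : Submodule F V} (hA : NAlt (B.restrict A)) {y : G} (hy : ∀ v ∈ A, y • v = v)
    {m : G} (hm : m ∈ h.MA A) : y * m = m * y := by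
  apply h.ext
  intro v
  obtain ⟨a, ha, b, hb, rfl⟩ := h.exists_dec hA v
  have h1 : y • b ∈ B.orthogonal A := h.orth_inv (A := A) (x := y) (fun v hv => by rw [hy v hv]; exact hv) b hb
  rw [mul_smul, mul_smul, smul_add, smul_add, smul_add, smul_add, hy a ha, hy _ (h.MA_stable hm ha), hm.2 b hb,
    hm.2 _ h1]

/-- **M-rule for a nondegenerate plane**, `|F| ≥ 4` -/
theorem plane_rule (h : Ev B N) (hE : Env G Ω N) (hIH : IH (Nat.card S)) (eS : N ≃* S) {κ : Type} [Finite κ]
    {y : κ → G} {s : κ → ℕ} (hy : PF y s) (hq : 4 ≤ Nat.card F) {A : Submodule F V} (hA : NAlt (B.restrict A))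
    (hA1 : A ≠ ⊤) (hd : finrank F A = 2) (hN : ∀ k, y k ∈ N) (hinv : ∀ k, ∀ v ∈ A, y k • v ∈ A) (ω : Ω)
    (hcov : ∀ m ∈ h.MA A, ∃ k, y k • m • ω = m • ω) :
    (∀ g ∈ h.MA A, g • ω = ω) ∨ ∃ k, (∀ a ∈ A, y k • a = a) ∧ y k • ω = ω := by
  classical
  have hNn := hE.norm
  have hle : h.MA A ≤ N := fun g hg => hg.1
  have hnorm : ∀ i, y i ∈ Subgroup.normalizer (h.MA A : Set G) := by
    intro i
    rw [Subgroup.mem_normalizer_iff]
    have key : ∀ {y : G}, (∀ v ∈ A, y • v ∈ A) → ∀ u ∈ h.MA A, y * u * y⁻¹ ∈ h.MA A := fun hy u hu =>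
      h.MA_norm hy (fun u hu => hNn.conj_mem u hu _) hu
    intro u
    refine ⟨key (hinv i) u, fun hu => ?_⟩
    have h3 := key (inv_stable (hinv i)) _ hu
    rwa [inv_inv, show (y i)⁻¹ * (y i * u * (y i)⁻¹) * y i = u by group] at h3
  suffices h0 : h.MA A ≤ stabilizer G ω ∨ ∃ j, (∀ m ∈ h.MA A, y j * m = m * y j) ∧ y j • ω = ω by
    rcases h0 with h1 | ⟨j, h1, h2⟩
    · exact Or.inl fun g hg => h1 hg
    · exact Or.inr ⟨j, fun a ha => h.fix_of_comm (h1 _ (h.tr_mem_MA ha 1)), h2⟩
  have hker : (MonoidHom.id (h.MA A)).ker ≤ Subgroup.center (h.MA A) := by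
    rw [MonoidHom.ker_id]; exact bot_le
  rcases hq.lt_or_eq with hq4 | hq4
  · have hS : SimpCl (h.MA A) := SimpCl.congr (h.MAequiv hA) (simpCl_Sp hA h.two (Or.inr (Or.inr ⟨hd, hq4⟩)))
    exact mrule_RC hS.simple hS.ncomm y s hy.prime hy.inj hy.pow hy.comm (h.MA A)
      (perfect_of_simple hS.simple hS.ncomm) (MonoidHom.id _) Function.surjective_id hker hnorm
      (hIH.use eS hle (h.MA_ne hA1) (MonoidHom.id _) Function.surjective_id hS.simple hS.ncomm hS.cl hS.nexc) ω hcov
  · have hcase : 6 ≤ finrank F A ∨ (finrank F A = 4 ∧ 3 ≤ Nat.card F) ∨ (finrank F A ≠ 0 ∧ 4 ≤ Nat.card F) :=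
      Or.inr (Or.inr ⟨by omega, hq⟩)
    let eq : (Sp (B.restrict A) ⧸ Subgroup.center (Sp (B.restrict A))) ≃* h.MA A :=
      (quotEquiv (center_Sp hA h.two)).symm.trans (h.MAequiv hA)
    have hs1 : IsSimpleGroup (h.MA A) := isSimple_cgr eq (simple_Sp hA hcase)
    have hs2 : ¬ IsMulCommutative (h.MA A) := notComm_cgr eq (ncomm_Sp hA hcase)
    -- two members are not both nontrivial on `A`
    have htwo : ∀ k l, k ≠ l → (∀ a ∈ A, y k • a = a) ∨ (∀ a ∈ A, y l • a = a) := by
      intro k l hkl
      by_contra hcon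
      push Not at hcon
      obtain ⟨⟨a, ha, hna⟩, ⟨b, hb, hnb⟩⟩ := hcon
      have hgA : ∀ v ∈ A, (y k * y l) • v ∈ A := fun v hv => by
        rw [mul_smul]; exact hinv k _ (hinv l v hv)
      obtain ⟨m, hm, hmA⟩ := plane_pow h hA hd hq4.symm (N.mul_mem (hN k) (hN l)) hgA
      have hcomm : Commute (y k) (y l) := hy.comm k l
      have hmA' : ∀ n : ℕ, ∀ v ∈ A, ((y k * y l) ^ m) ^ n • v = v := by
        intro n
        induction n with
        | zero => intro v _; rw [pow_zero, one_smul]
        | succ n ih => intro v hv; rw [pow_succ, mul_smul, hmA v hv, ih v hv]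
      have hsk : s k = m := by
        have h1 : y k ^ (m * s l) ∈ stabilizer G a := by
          have h2 := hmA' (s l) a ha
          rw [← pow_mul, hcomm.mul_pow, mul_comm m (s l), pow_mul (y l), hy.pow l, one_pow, mul_one,
            mul_comm (s l) m] at h2
          exact h2
        by_contra h3
        apply hna
        refine mem_of_pow_mem (hy.prime k) (hy.pow k) h1 fun h4 => ?_
        rcases (hy.prime k).dvd_mul.1 h4 with h5 | h5
        · exact h3 ((Nat.prime_dvd_prime_iff_eq (hy.prime k) hm).1 h5)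
        · exact hkl (hy.inj ((Nat.prime_dvd_prime_iff_eq (hy.prime k) (hy.prime l)).1 h5))
      have hsl : s l = m := by
        have h1 : y l ^ (m * s k) ∈ stabilizer G b := by
          have h2 := hmA' (s k) b hb
          rw [← pow_mul, hcomm.mul_pow, mul_comm m (s k), pow_mul (y k), hy.pow k, one_pow, one_mul,
            mul_comm (s k) m] at h2
          exact h2
        by_contra h3
        apply hnb
        refine mem_of_pow_mem (hy.prime l) (hy.pow l) h1 fun h4 => ?_
        rcases (hy.prime l).dvd_mul.1 h4 with h5 | h5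
        · exact h3 ((Nat.prime_dvd_prime_iff_eq (hy.prime l) hm).1 h5)
        · exact hkl (hy.inj ((Nat.prime_dvd_prime_iff_eq (hy.prime l) (hy.prime k)).1 h5)).symm
      exact hkl (hy.inj (hsk.trans hsl.symm))
    -- choose the nontrivial one
    obtain ⟨i₀, hi₀⟩ : ∃ i₀, ∀ i, i ≠ i₀ → ∀ a ∈ A, y i • a = a := by
      by_cases hex : ∃ k, ¬ ∀ a ∈ A, y k • a = a
      · obtain ⟨k, hk⟩ := hex
        exact ⟨k, fun i hi => (htwo i k hi).resolve_right hk⟩
      · push Not at hex
        obtain ⟨k, -⟩ := hcov 1 (Subgroup.one_mem _)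
        exact ⟨k, fun i _ => hex i⟩
    exact mrule_one hs1 hs2 y s hy.prime hy.inj hy.pow hy.comm (h.MA A) (perfect_of_simple hs1 hs2) (MonoidHom.id _)
      Function.surjective_id hker i₀ (hnorm i₀) (fun i hi m hm => comm_of_fix h hA (hi₀ i hi) hm) ω hcov

end rule

end Cfsg.Agent.H76.RC
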